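/-
Majorana involutions: eigenvector decomposition and fusion rules in equational form.
-/
import Cfsg.Prelude.Def_AxialAlgebras

set_option autoImplicit false

namespace CA.Maj

open Cfsg.Axial

variable {V : Type*} [AddCommGroup V] [Module ℝ V] {mul : V →ₗ[ℝ] V →ₗ[ℝ] V}
  {B : LinearMap.BilinForm ℝ V} {μ μ' : V ≃ₗ[ℝ] V} {a v w : V}

theorem mem_eigen {c : ℝ} : v ∈ eigen mul a c ↔ mul a v = c • v := Module.End.mem_eigenspace_iff

theorem idem (h : IsMajoranaPair mul B μ a) : mul a a = a := h.2.2.1.1.2.1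

theorem one_eigen (h : IsMajoranaPair mul B μ a) (hv : v ∈ eigen mul a 1) : ∃ c : ℝ, c • a = v := by
  rwa [h.2.2.1.2, Submodule.mem_span_singleton] at hv

theorem decomp (h : IsMajoranaPair mul B μ a) (v : V) : ∃ (c : ℝ) (α β γ : V), v = c • a + α + β + γ ∧
    mul a α = 0 ∧ mul a β = (1 / 4 : ℝ) • β ∧ mul a γ = (1 / 32 : ℝ) • γ := by
  have h1 : v ∈ eigenSum mul a majoranaSpectrum := h.2.2.1.1.2.2.1 ▸ Submodule.mem_top
  simp only [eigenSum, majoranaSpectrum, iSup_insert, iSup_singleton, Submodule.mem_sup] at h1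
  obtain ⟨x, hx, _, ⟨α, hα, _, ⟨β, hβ, γ, hγ, rfl⟩, rfl⟩, rfl⟩ := h1
  obtain ⟨c, rfl⟩ := one_eigen h hx
  exact ⟨c, α, β, γ, by abel, by simpa using mem_eigen.1 hα, mem_eigen.1 hβ, mem_eigen.1 hγ⟩

theorem fix_of_eigen (h : IsMajoranaPair mul B μ a) {c : ℝ} (hc : c ∈ ({1, 0, 1 / 4} : Set ℝ))
    (hv : mul a v = c • v) : μ v = v :=
  h.2.2.2.1 v (le_iSup₂_of_le (f := fun c (_ : c ∈ ({1, 0, 1 / 4} : Set ℝ)) => eigen mul a c) c hc le_rfl
    (mem_eigen.2 hv))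

theorem fix_self (h : IsMajoranaPair mul B μ a) : μ a = a :=
  fix_of_eigen h (c := 1) (by simp) (by rw [idem h, one_smul])

theorem neg_of_eigen (h : IsMajoranaPair mul B μ a) (hv : mul a v = (1 / 32 : ℝ) • v) : μ v = -v :=
  h.2.2.2.2 v (mem_eigen.2 hv)

theorem decomp' (h : IsMajoranaPair mul B μ a) (v : V) : ∃ (c : ℝ) (α β γ : V), v = c • a + α + β + γ ∧
    μ v = c • a + α + β - γ ∧
    mul a α = 0 ∧ mul a β = (1 / 4 : ℝ) • β ∧ mul a γ = (1 / 32 : ℝ) • γ := by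
  obtain ⟨c, α, β, γ, rfl, h1, h2, h3⟩ := decomp h v
  refine ⟨c, α, β, γ, rfl, ?_, h1, h2, h3⟩
  rw [map_add, map_add, map_add, map_smul, fix_self h, fix_of_eigen h (c := 0) (by simp) (by simpa using h1),
    fix_of_eigen h (c := 1 / 4) (by simp) h2, neg_of_eigen h h3, sub_eq_add_neg]

theorem invol (h : IsMajoranaPair mul B μ a) : μ * μ = 1 := by
  ext v
  obtain ⟨c, α, β, γ, rfl, h0, h1, h2, h3⟩ := decomp' h v
  rw [LinearEquiv.mul_apply, h0, map_sub, map_add, map_add, map_smul, fix_self h,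
    fix_of_eigen h (c := 0) (by simp) (by simpa using h1),
    fix_of_eigen h (c := 1 / 4) (by simp) h2, neg_of_eigen h h3]
  simp

theorem eq_of_axis (h : IsMajoranaPair mul B μ a) (h' : IsMajoranaPair mul B μ' a) : μ = μ' := by
  ext v
  obtain ⟨c, α, β, γ, rfl, h0, h1, h2, h3⟩ := decomp' h v
  rw [h0, map_add, map_add, map_add, map_smul, fix_self h',
    fix_of_eigen h' (c := 0) (by simp) (by simpa using h1),
    fix_of_eigen h' (c := 1 / 4) (by simp) h2, neg_of_eigen h' h3, sub_eq_add_neg]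

theorem fus00 (h : IsMajoranaPair mul B μ a) (hv : mul a v = 0) (hw : mul a w = 0) :
    mul a (mul v w) = 0 := by
  have := h.2.2.1.1.2.2.2 0 (by simp [majoranaSpectrum]) 0 (by simp [majoranaSpectrum]) v
    (mem_eigen.2 (by simpa using hv)) w (mem_eigen.2 (by simpa using hw))
  have e : monsterLaw (1 / 4 : ℝ) (1 / 32) 0 0 = {0} := by norm_num [monsterLaw]
  rwa [e, eigenSum, iSup_singleton, mem_eigen, zero_smul] at this

theorem fus0b (h : IsMajoranaPair mul B μ a) (hv : mul a v = 0) (hw : mul a w = (1 / 4 : ℝ) • w) :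
    mul a (mul v w) = (1 / 4 : ℝ) • mul v w := by
  have := h.2.2.1.1.2.2.2 0 (by simp [majoranaSpectrum]) (1 / 4) (by simp [majoranaSpectrum]) v
    (mem_eigen.2 (by simpa using hv)) w (mem_eigen.2 hw)
  have e : monsterLaw (1 / 4 : ℝ) (1 / 32) 0 (1 / 4) = {1 / 4} := by norm_num [monsterLaw]
  rwa [e, eigenSum, iSup_singleton, mem_eigen] at this

theorem fusbb' (h : IsMajoranaPair mul B μ a) (hv : mul a v = (1 / 4 : ℝ) • v)
    (hw : mul a w = (1 / 4 : ℝ) • w) : ∃ c : ℝ, mul a (mul v w) = c • a := by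
  have := h.2.2.1.1.2.2.2 (1 / 4) (by simp [majoranaSpectrum]) (1 / 4) (by simp [majoranaSpectrum]) v
    (mem_eigen.2 hv) w (mem_eigen.2 hw)
  have e : monsterLaw (1 / 4 : ℝ) (1 / 32) (1 / 4) (1 / 4) = {1, 0} := by norm_num [monsterLaw]
  rw [e, eigenSum, iSup_insert, iSup_singleton, Submodule.mem_sup] at this
  obtain ⟨x, hx, y, hy, e⟩ := this
  obtain ⟨c, rfl⟩ := one_eigen h hx
  exact ⟨c, by rw [← e, map_add, map_smul, idem h, mem_eigen.1 hy]; simp⟩

theorem fusbb (hV : IsMajoranaAmbient mul B) (h : IsMajoranaPair mul B μ a) (hn : B a a = 1)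
    (hv : mul a v = (1 / 4 : ℝ) • v) (hw : mul a w = (1 / 4 : ℝ) • w) :
    mul a (mul v w) = (B v w / 4) • a := by
  obtain ⟨c, hc⟩ := fusbb' h hv hw
  have := congrArg (B a) hc
  rw [hV.2.2.2.1, idem h, hV.2.2.2.1, hv, map_smul, map_smul, hn] at this
  simp only [LinearMap.smul_apply, smul_eq_mul] at this
  rw [hc]; congr 1; linarith

theorem conj (h : IsMajoranaPair mul B μ a) (g : V ≃ₗ[ℝ] V) (h1 : ∀ u v, g (mul u v) = mul (g u) (g v))
    (h2 : ∀ u v, B (g u) (g v) = B u v) : IsMajoranaPair mul B (g * μ * g⁻¹) (g a) := by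
  have h3 : ∀ u v, g.symm (mul u v) = mul (g.symm u) (g.symm v) := fun u v =>
    g.injective (by simp [h1])
  have e1 : ∀ c : ℝ, eigen mul (g a) c = (eigen mul a c).map (g : V →ₗ[ℝ] V) := fun c => by
    ext v
    obtain ⟨v, rfl⟩ := g.surjective v
    rw [mem_eigen, ← h1, ← map_smul, g.injective.eq_iff, ← mem_eigen]
    simp
  have e2 : ∀ S : Set ℝ, eigenSum mul (g a) S = (eigenSum mul a S).map (g : V →ₗ[ℝ] V) := fun S => by
    simp only [eigenSum, Submodule.map_iSup, e1]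
  refine ⟨fun u v => ?_, fun u v => ?_, ⟨⟨?_, ?_, ?_, ?_⟩, ?_⟩, ?_, ?_⟩
  · simp [h1, h3, h.1]
  · simp only [LinearEquiv.mul_apply, h2, h.2.1]
    rw [← h2]; simp
  · simpa using h.2.2.1.1.1
  · rw [← h1, idem h]
  · rw [e2, h.2.2.1.1.2.2.1]; simp
  · intro c hc d hd u hu v hv
    rw [e1] at hu hv
    obtain ⟨u, hu, rfl⟩ := hu
    obtain ⟨v, hv, rfl⟩ := hv
    rw [e2]
    exact ⟨_, h.2.2.1.1.2.2.2 c hc d hd u hu v hv, h1 u v⟩
  · rw [e1, h.2.2.1.2, Submodule.map_span]; simp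
  · intro v hv
    rw [e2] at hv
    obtain ⟨v, hv, rfl⟩ := hv
    have := h.2.2.2.1 v hv
    simp_all
  · intro v hv
    rw [e1] at hv
    obtain ⟨v, hv, rfl⟩ := hv
    have := h.2.2.2.2 v hv
    simp_all

theorem eq_of_form (hV : IsMajoranaAmbient mul B) (hv : B v v = 1) (hw : B w w = 1) (h : B v w = 1) :
    v = w := by
  by_contra hne
  have := hV.2.2.1 _ (sub_ne_zero.2 hne)
  simp [hv, hw, h, hV.2.1 w v] at this

/-- the eigenvectors attached to a vector `v` -/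
theorem eigvecs (hV : IsMajoranaAmbient mul B) (h : IsMajoranaPair mul B μ a) (hn : B a a = 1) (v : V) :
    mul a (μ v) - (1 / 32 : ℝ) • (a + μ v) = mul a v - (1 / 32 : ℝ) • (a + v) ∧
    mul a ((-4 : ℝ) • (mul a v - (1 / 32 : ℝ) • (a + v)) + (3 * B a v - 1 / 8) • a
      + (7 / 16 : ℝ) • (v + μ v)) = 0 ∧
    mul a ((4 : ℝ) • (mul a v - (1 / 32 : ℝ) • (a + v)) + (1 / 8 - 4 * B a v) • a + (1 / 16 : ℝ) • (v + μ v))
      = (1 / 4 : ℝ) • ((4 : ℝ) • (mul a v - (1 / 32 : ℝ) • (a + v)) + (1 / 8 - 4 * B a v) • a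
        + (1 / 16 : ℝ) • (v + μ v)) := by
  obtain ⟨c, α, β, γ, hv, h0, h1, h2, h3⟩ := decomp' h v
  have o : ∀ (x : V) (d : ℝ), d ≠ 1 → mul a x = d • x → B a x = 0 := fun x d hd hx => by
    have := hV.2.2.2.1 a a x
    rw [idem h, hx, map_smul, smul_eq_mul] at this
    have h4 : (d - 1) * B a x = 0 := by linarith
    exact (mul_eq_zero.1 h4).resolve_left (sub_ne_zero.2 hd)
  have hc : B a v = c := by
    rw [hv]
    simp [hn, o α 0 (by norm_num) (by simpa using h1), o β _ (by norm_num) h2, o γ _ (by norm_num) h3]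
  rw [h0, hc, hv]
  simp only [map_add, map_sub, map_smul, idem h, h1, h2, h3, map_zero]
  refine ⟨?_, ?_, ?_⟩ <;> module

end CA.Maj
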