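/-
Sakuma's theorem: two Majorana involutions generate a dihedral group of order at most 12.
-/
import Cfsg.Agent.Lib.Axial.Majorana

set_option autoImplicit false

namespace CA.Maj

open Cfsg.Axial

variable {V : Type*} [AddCommGroup V] [Module ℝ V] {mul : V →ₗ[ℝ] V →ₗ[ℝ] V}
  {B : LinearMap.BilinForm ℝ V}

/-- the sequence of axes of a dihedral group generated by two Majorana involutions -/
structure Seq (mul : V →ₗ[ℝ] V →ₗ[ℝ] V) (B : LinearMap.BilinForm ℝ V) where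
  a : ℤ → V
  τ : ℤ → V ≃ₗ[ℝ] V
  amb : IsMajoranaAmbient mul B
  pair : ∀ i, IsMajoranaPair mul B (τ i) (a i)
  norm : ∀ i, B (a i) (a i) = 1
  act : ∀ i j, τ i (a j) = a (2 * i - j)

namespace Seq

variable (S : Seq mul B)

theorem act' (i j k : ℤ) (h : k = 2 * i - j := by omega) : S.τ i (S.a j) = S.a k := h ▸ S.act i j

noncomputable def sg (i k : ℤ) : V := mul (S.a i) (S.a (i + k)) - (1 / 32 : ℝ) • (S.a i + S.a (i + k))

theorem sg_step (i k : ℤ) : S.sg (i + k) k = S.sg i k := by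
  have := (eigvecs S.amb (S.pair (i + k)) (S.norm _) (S.a i)).1
  rw [S.act' _ _ (i + k + k)] at this
  rw [sg, this, sg, S.amb.1, add_comm (S.a i)]

theorem la_step (i k : ℤ) : B (S.a (i + k)) (S.a (i + k + k)) = B (S.a i) (S.a (i + k)) := by
  rw [← (S.pair (i + k)).2.1 (S.a i), S.act' _ _ (i + k + k), S.act' _ _ (i + k), S.amb.2.1]

theorem period {X : Type*} (f : ℤ → X) (k : ℤ) (h : ∀ i, f (i + k) = f i) (n i : ℤ) : f (i + n * k) = f i := by
  induction n using Int.induction_on with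
  | zero => simp
  | succ n ih => rw [add_mul, one_mul, ← add_assoc, h, ih]
  | pred n ih => rw [← h, ← ih]; congr 1; ring

noncomputable def s : V := S.sg 0 1
noncomputable def T (i : ℤ) : V := S.sg (i % 2) 2
noncomputable def l : ℝ := B (S.a 0) (S.a 1)
noncomputable def m : ℝ := B (S.a 0) (S.a 2)

theorem T_congr (i j : ℤ) (h : i % 2 = j % 2 := by omega) : S.T i = S.T j := by rw [T, h, T]

theorem m0 (i : ℤ) : mul (S.a i) (S.a i) = S.a i := idem (S.pair i)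

theorem m1 (i j : ℤ) (h : j = i + 1 := by omega) :
    mul (S.a i) (S.a j) = S.s + (1 / 32 : ℝ) • (S.a i + S.a j) := by
  have := period (fun i => S.sg i 1) 1 (fun i => S.sg_step i 1) i 0
  simp only [zero_add, mul_one] at this
  rw [s, ← this, h, sg, sub_add_cancel]

theorem m1' (i j : ℤ) (h : j = i - 1 := by omega) :
    mul (S.a i) (S.a j) = S.s + (1 / 32 : ℝ) • (S.a i + S.a j) := by
  rw [S.amb.1, S.m1 j i, add_comm (S.a i)]

theorem m2 (i j k : ℤ) (h : j = i + 2 := by omega) (h' : k % 2 = i % 2 := by omega) :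
    mul (S.a i) (S.a j) = S.T k + (1 / 32 : ℝ) • (S.a i + S.a j) := by
  have := period (fun i => S.sg i 2) 2 (fun i => S.sg_step i 2) (i / 2) (i % 2)
  rw [show i % 2 + i / 2 * 2 = i by omega] at this
  rw [T, h', ← this, h, sg, sub_add_cancel]

theorem m2' (i j k : ℤ) (h : j = i - 2 := by omega) (h' : k % 2 = i % 2 := by omega) :
    mul (S.a i) (S.a j) = S.T k + (1 / 32 : ℝ) • (S.a i + S.a j) := by
  rw [S.amb.1, S.m2 j i k, add_comm (S.a i)]

theorem b1 (i j : ℤ) (h : j = i + 1 := by omega) : B (S.a i) (S.a j) = S.l := by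
  have := period (fun i => B (S.a i) (S.a (i + 1))) 1 (fun i => S.la_step i 1) i 0
  simp only [zero_add, mul_one] at this
  rw [l, ← this, h]

theorem b1' (i j : ℤ) (h : j = i - 1 := by omega) : B (S.a i) (S.a j) = S.l := by
  rw [S.amb.2.1, S.b1 j i]

theorem bs (i : ℤ) : B (S.a i) S.s = S.l - (1 + S.l) / 32 := by
  have := congrArg (B (S.a i)) (S.m1 i (i + 1))
  rw [S.amb.2.2.2.1, S.m0] at this
  simp only [map_add, map_smul, S.norm, S.b1 i (i + 1), smul_eq_mul] at this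
  linarith

theorem eig (i j k : ℤ) (σ : V) (x : ℝ) (h : k = 2 * i - j)
    (h1 : mul (S.a i) (S.a j) = σ + (1 / 32 : ℝ) • (S.a i + S.a j)) (h2 : B (S.a i) (S.a j) = x) :
    mul (S.a i) ((-4 : ℝ) • σ + (3 * x - 1 / 8) • S.a i + (7 / 16 : ℝ) • (S.a j + S.a k)) = 0 ∧
    mul (S.a i) ((4 : ℝ) • σ + (1 / 8 - 4 * x) • S.a i + (1 / 16 : ℝ) • (S.a j + S.a k))
      = (1 / 4 : ℝ) • ((4 : ℝ) • σ + (1 / 8 - 4 * x) • S.a i + (1 / 16 : ℝ) • (S.a j + S.a k)) := by
  have := (eigvecs S.amb (S.pair i) (S.norm _) (S.a j)).2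
  rwa [S.act' i j k, h1, h2, add_sub_cancel_right] at this

theorem E1 (i j k : ℤ) (hj : j = i - 1 := by omega) (hk : k = i + 1 := by omega) :
    mul (S.a i) S.s = (7 / 32 : ℝ) • S.s + (3 / 4 * S.l - 25 / 1024) • S.a i
      + (7 / 2048 : ℝ) • (S.a j + S.a k) := by
  have := (S.eig i k j _ _ (by omega) (S.m1 i k) (S.b1 i k)).1
  simp only [map_add, map_smul, S.m0, S.m1 i k, S.m1' i j] at this
  linear_combination (norm := module) (-1 / 4 : ℝ) • this

theorem b2 (i j : ℤ) (h : j = i + 2 := by omega) : B (S.a i) (S.a j) = S.m := by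
  have key : ∀ i j k : ℤ, j = i - 1 → k = i + 1 → B S.s S.s = 7 / 32 * (S.l - (1 + S.l) / 32) +
      (3 / 4 * S.l - 25 / 1024) * S.l + 7 / 2048 * (B (S.a j) (S.a k) + 1) - (S.l - (1 + S.l) / 32) / 16 := by
    intro i j k hj hk
    have := congrArg (B (S.a k)) (S.E1 i j k)
    rw [S.amb.2.2.2.1, S.m1' k i] at this
    simp only [map_add, map_smul, LinearMap.add_apply, LinearMap.smul_apply, S.norm, S.b1' k i, smul_eq_mul,
      S.bs, S.amb.2.1 (S.a k) (S.a j)] at this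
    linarith
  have h1 := key (i + 1) i j (by omega) (by omega)
  have h2 := key 1 0 2 (by omega) (by omega)
  rw [m]; linarith

theorem b2' (i j : ℤ) (h : j = i - 2 := by omega) : B (S.a i) (S.a j) = S.m := by
  rw [S.amb.2.1, S.b2 j i]

theorem bss : B S.s S.s = 7 / 32 * (S.l - (1 + S.l) / 32) +
      (3 / 4 * S.l - 25 / 1024) * S.l + 7 / 2048 * (S.m + 1) - (S.l - (1 + S.l) / 32) / 16 := by
  have := congrArg (B (S.a 1)) (S.E1 0 (-1) 1)
  rw [S.amb.2.2.2.1, S.m1' 1 0] at this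
  simp only [map_add, map_smul, LinearMap.add_apply, LinearMap.smul_apply, S.norm, S.b1' 1 0, smul_eq_mul,
    S.bs, S.b2' 1 (-1)] at this
  linarith

theorem bt (i k : ℤ) (h : k % 2 = i % 2 := by omega) : B (S.a i) (S.T k) = S.m - (1 + S.m) / 32 := by
  have := congrArg (B (S.a i)) (S.m2 i (i + 2) k)
  rw [S.amb.2.2.2.1, S.m0] at this
  simp only [map_add, map_smul, S.norm, S.b2 i (i + 2), smul_eq_mul] at this
  linarith

theorem bt' (i k : ℤ) (h : k % 2 = (i + 1) % 2 := by omega) :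
    B (S.a i) (S.T k) = 15 / 16 * S.l + (S.m - 1) / 32 := by
  have := congrArg (B (S.a i)) (S.m2 (i - 1) (i + 1) k)
  rw [S.amb.2.2.2.1, S.m1' i (i - 1)] at this
  simp only [map_add, map_smul, LinearMap.add_apply, LinearMap.smul_apply, S.b1 i (i + 1), S.b1' i (i - 1),
    S.b2 (i - 1) (i + 1), smul_eq_mul, S.amb.2.1 S.s, S.bs] at this
  linarith

theorem E2 (i j k t : ℤ) (hj : j = i - 2 := by omega) (hk : k = i + 2 := by omega)
    (ht : t % 2 = i % 2 := by omega) :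
    mul (S.a i) (S.T t) = (7 / 32 : ℝ) • S.T t + (3 / 4 * S.m - 25 / 1024) • S.a i
      + (7 / 2048 : ℝ) • (S.a j + S.a k) := by
  have := (S.eig i k j _ _ (by omega) (S.m2 i k t) (S.b2 i k)).1
  simp only [map_add, map_smul, S.m0, S.m2 i k t, S.m2' i j t] at this
  linear_combination (norm := module) (-1 / 4 : ℝ) • this

theorem E34 (i j k j' k' t u : ℤ) (hj : j = i - 1 := by omega) (hk : k = i + 1 := by omega)
    (hj' : j' = i - 2 := by omega) (hk' : k' = i + 2 := by omega) (ht : t % 2 = i % 2 := by omega)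
    (hu : u % 2 = (i + 1) % 2 := by omega) :
    mul (S.a i) (S.T u) = (32 / 3 * S.l - 19 / 48) • S.s + (7 / 96 : ℝ) • S.T t
      + (-32 / 3 * S.l ^ 2 + 5 / 3 * S.l - 1 / 24 * S.m - 127 / 3072) • S.a i
      + (1 / 6 * S.l - 19 / 3072) • (S.a j + S.a k) + (7 / 6144 : ℝ) • (S.a j' + S.a k') ∧
    mul S.s S.s = (-5 / 12 * S.l - 13 / 1536) • S.s + (-7 / 1536 : ℝ) • S.T t + (7 / 2048 : ℝ) • S.T u
      + (7 / 6 * S.l ^ 2 - 7 / 384 * S.l + 7 / 1536 * S.m - 7 / 98304) • S.a i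
      + (49 / 768 * S.l - 245 / 196608) • (S.a j + S.a k) + (49 / 196608 : ℝ) • (S.a j' + S.a k') := by
  obtain ⟨h1, h2⟩ := S.eig i k j _ _ (by omega) (S.m1 i k) (S.b1 i k)
  have f1 := fus00 (S.pair i) h1 h1
  have f2 := fus0b (S.pair i) h1 h2
  have f3 := fusbb S.amb (S.pair i) (S.norm i) h2 h2
  have c1 : ∀ n, mul S.s (S.a n) = mul (S.a n) S.s := fun n => S.amb.1 _ _
  have c2 : ∀ n, B S.s (S.a n) = B (S.a n) S.s := fun n => S.amb.2.1 _ _
  simp only [map_add, map_smul, LinearMap.add_apply, LinearMap.smul_apply, S.m0, c1, c2, S.m1 i k, S.m1' i j,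
    S.m1 j i, S.m1' k i, S.m2 j k u, S.m2' k j u, S.E1 i j k, S.E1 j j' i, S.E1 k i k', S.m2 i k' t,
    S.m2' i j' t, S.norm, S.bs, S.bss, S.b1 i k, S.b1' i j, S.b1 j i, S.b1' k i, S.b2 j k, S.b2' k j,
    smul_eq_mul] at f1 f2 f3
  constructor
  · linear_combination (norm := module) (8 / 3 : ℝ) • f1 - (8 / 3 : ℝ) • f3
  · linear_combination (norm := module) (1 / 4 : ℝ) • f1 + (1 / 4 : ℝ) • f2
      - (7 / 64 : ℝ) • ((8 / 3 : ℝ) • f1 - (8 / 3 : ℝ) • f3)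

noncomputable def b : ℝ := 256 * S.l - 6
noncomputable def c : ℝ := (32768 * S.l ^ 2 - 2304 * S.l + 128 * S.m + 33) / 7

theorem R (i i1 i2 j1 j2 j3 t u : ℤ) (h1 : i1 = i - 1 := by omega) (h2 : i2 = i - 2 := by omega)
    (h3 : j1 = i + 1 := by omega) (h4 : j2 = i + 2 := by omega) (h5 : j3 = i + 3 := by omega)
    (ht : t % 2 = i % 2 := by omega) (hu : u % 2 = (i + 1) % 2 := by omega) :
    S.a j3 = S.a i2 + S.b • (S.a i1 - S.a j2) + S.c • (S.a i - S.a j1) - (32 : ℝ) • (S.T t - S.T u) := by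
  have e1 := (S.E34 i i1 j1 i2 j2 t u).2
  have e2 := (S.E34 j1 i j2 i1 j3 u t).2
  rw [b, c]
  linear_combination (norm := module) (196608 / 49 : ℝ) • e1 - (196608 / 49 : ℝ) • e2

noncomputable def d : ℝ := 32 * ((S.m - (1 + S.m) / 32) - (15 / 16 * S.l + (S.m - 1) / 32))
noncomputable def l3 : ℝ := S.m + S.b * (S.l - S.m) + S.c * (1 - S.l) - S.d
noncomputable def l4 : ℝ := S.l + S.b * (1 - S.l3) + S.c * (S.l - S.m) + S.d
noncomputable def l5 : ℝ := 1 + S.b * (S.l - S.l4) + S.c * (S.m - S.l3) - S.d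
noncomputable def l6 : ℝ := S.l + S.b * (S.m - S.l5) + S.c * (S.l3 - S.l4) + S.d

theorem b3 (i j : ℤ) (h : j = i + 3 := by omega) : B (S.a i) (S.a j) = S.l3 := by
  rw [S.R i (i - 1) (i - 2) (i + 1) (i + 2) j i (i + 1)]
  simp only [map_add, map_sub, map_smul, smul_eq_mul, S.norm, S.b1 i (i + 1), S.b1' i (i - 1),
    S.b2 i (i + 2), S.b2' i (i - 2), S.bt i i, S.bt' i (i + 1), l3, d]

theorem b4 (i j : ℤ) (h : j = i + 4 := by omega) : B (S.a i) (S.a j) = S.l4 := by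
  rw [S.R (i + 1) i (i - 1) (i + 2) (i + 3) j (i + 1) i]
  simp only [map_add, map_sub, map_smul, smul_eq_mul, S.norm, S.b1 i (i + 1), S.b1' i (i - 1),
    S.b2 i (i + 2), S.b3 i (i + 3), S.bt i i, S.bt' i (i + 1), l4, d]
  ring

theorem b5 (i j : ℤ) (h : j = i + 5 := by omega) : B (S.a i) (S.a j) = S.l5 := by
  rw [S.R (i + 2) (i + 1) i (i + 3) (i + 4) j i (i + 1)]
  simp only [map_add, map_sub, map_smul, smul_eq_mul, S.norm, S.b1 i (i + 1), S.b4 i (i + 4),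
    S.b2 i (i + 2), S.b3 i (i + 3), S.bt i i, S.bt' i (i + 1), l5, d]

theorem b6 (i j : ℤ) (h : j = i + 6 := by omega) : B (S.a i) (S.a j) = S.l6 := by
  rw [S.R (i + 3) (i + 2) (i + 1) (i + 4) (i + 5) j (i + 1) i]
  simp only [map_add, map_sub, map_smul, smul_eq_mul, S.norm, S.b1 i (i + 1), S.b4 i (i + 4),
    S.b2 i (i + 2), S.b3 i (i + 3), S.b5 i (i + 5), S.bt i i, S.bt' i (i + 1), l6, d]
  ring

theorem p1 : 6291456 * S.l ^ 4 - 6979584 * S.l ^ 3 + 122880 * S.l ^ 2 * S.m + 552960 * S.l ^ 2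
    + 26688 * S.l * S.m + 384 * S.m ^ 2 - 14400 * S.l - 501 * S.m + 117 = 0 := by
  have c2 : ∀ n x, B x (S.a n) = B (S.a n) x := fun n x => S.amb.2.1 _ _
  have h1 := congrArg (B (S.a 1)) (S.E2 (-1) (-3) 1 1)
  rw [S.amb.2.2.2.1, S.m2' 1 (-1) 1] at h1
  have h2 := congrArg (B (S.a 2)) (S.E34 0 (-1) 1 (-2) 2 0 1).1
  rw [S.amb.2.2.2.1, S.m2' 2 0 0] at h2
  have h3 := congrArg (fun x => B x (S.T 1)) (S.R 0 (-1) (-2) 1 2 3 0 1)
  simp only [map_add, map_sub, map_smul, LinearMap.add_apply, LinearMap.sub_apply, LinearMap.smul_apply,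
    smul_eq_mul, S.norm, S.bs, S.bt 1 1, S.bt (-1) 1, S.bt 3 1, S.bt' 0 1, S.bt' 2 1, S.bt' (-2) 1, S.bt 2 0,
    S.b2' 1 (-1), (c2 _ _).trans (S.b4 (-3) 1), S.b2' 2 0, (c2 _ _).trans (S.b3 (-1) 2), S.b1' 2 1,
    (c2 _ _).trans (S.b4 (-2) 2), l4, l3, b, c, d] at h1 h2 h3
  linear_combination (-56) * h3 - (56 * 32) * h1 + (56 * 32) * h2

theorem p2 : 1610612736 * S.l ^ 5 - 1815085056 * S.l ^ 4 + 78643200 * S.l ^ 3 * S.m + 132415488 * S.l ^ 3
    - 4780032 * S.l ^ 2 * S.m + 282624 * S.l * S.m ^ 2 - 2580480 * S.l ^ 2 + 497568 * S.l * S.m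
    + 8352 * S.m ^ 2 - 6048 * S.l - 8703 * S.m + 351 = 0 := by
  have c2 : ∀ n x, B x (S.a n) = B (S.a n) x := fun n x => S.amb.2.1 _ _
  have h1 := congrArg (fun x => B (S.a 3) (mul (S.a 0) x)) (S.R 0 (-1) (-2) 1 2 3 0 1)
  rw [S.amb.1, S.amb.2.2.2.1, S.m0] at h1
  simp only [map_add, map_sub, map_smul, S.m0, S.m1 0 1, S.m1' 0 (-1), S.m2 0 2 0, S.m2' 0 (-2) 0,
    S.E2 0 (-2) 2 0, (S.E34 0 (-1) 1 (-2) 2 0 1).1, smul_eq_mul, S.bs, S.bt' 3 0, S.b1' 3 2, S.b2' 3 1,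
    (c2 _ _).trans (S.b3 0 3), (c2 _ _).trans (S.b4 (-1) 3), (c2 _ _).trans (S.b5 (-2) 3),
    l5, l4, l3, b, c, d] at h1
  linear_combination (-196) * h1

theorem cases : S.m = 1 ∨ S.l3 = 1 ∨ S.l4 = 1 ∨ S.l5 = 1 ∨ S.l6 = 1 := by
  have h1 := S.p1
  have h2 := S.p2
  simp only [l6, l5, l4, l3, b, c, d]
  generalize S.l = l at *
  generalize S.m = m at *
  have q : (-11796480 * l ^ 3 - 27095040 * l ^ 2 + 285840 * l + 8775 / 4) * m + (-3019898880 * l ^ 5
      + 3185049600 * l ^ 4 - 122757120 * l ^ 3 - 4008960 * l ^ 2 + 221040 * l - 8775 / 4) = 0 := by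
    linear_combination h2 - (282624 * l + 8352) / 384 * h1
  have r : l * (l - 1) * (l - 1 / 8) * (l - 13 / 256) * (l - 1 / 64) ^ 2 * (l - 1 / 32) * (l - 3 / 128)
      * (l - 5 / 256) = 0 := by
    linear_combination (-1 / 10724872152620099174400) * ((-11796480 * l ^ 3 - 27095040 * l ^ 2
      + 285840 * l + 8775 / 4) ^ 2 * h1 - (384 * ((-11796480 * l ^ 3 - 27095040 * l ^ 2 + 285840 * l
      + 8775 / 4) * m - (-3019898880 * l ^ 5 + 3185049600 * l ^ 4 - 122757120 * l ^ 3 - 4008960 * l ^ 2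
      + 221040 * l - 8775 / 4)) + (122880 * l ^ 2 + 26688 * l - 501) * (-11796480 * l ^ 3
      - 27095040 * l ^ 2 + 285840 * l + 8775 / 4)) * q)
  simp only [mul_eq_zero, sub_eq_zero, pow_eq_zero_iff (two_ne_zero)] at r
  rcases r with ((((((rfl | rfl) | rfl) | rfl) | rfl) | rfl) | rfl) | rfl
  · left; linarith
  · left; linarith
  · left; linarith
  · obtain rfl : m = 13 / 256 := by linarith
    norm_num
  · have : (m - 1 / 64) * (m - 1 / 8) = 0 := by linear_combination (1 / 384) * h1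
    simp only [mul_eq_zero, sub_eq_zero] at this
    rcases this with rfl | rfl <;> norm_num
  · obtain rfl : m = 0 := by linarith
    norm_num
  · obtain rfl : m = 3 / 128 := by linarith
    norm_num
  · obtain rfl : m = 13 / 256 := by linarith
    norm_num

theorem exists_eq : ∃ n : ℕ, 1 ≤ n ∧ n ≤ 6 ∧ S.τ 0 = S.τ n := by
  have key : ∀ n : ℕ, B (S.a 0) (S.a n) = 1 → S.τ 0 = S.τ n := fun n h =>
    eq_of_axis (S.pair 0) (eq_of_form S.amb (S.norm 0) (S.norm n) h ▸ S.pair n)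
  rcases S.cases with h | h | h | h | h
  · exact ⟨2, by norm_num, by norm_num, key 2 ((S.b2 0 _).trans h)⟩
  · exact ⟨3, by norm_num, by norm_num, key 3 ((S.b3 0 _).trans h)⟩
  · exact ⟨4, by norm_num, by norm_num, key 4 ((S.b4 0 _).trans h)⟩
  · exact ⟨5, by norm_num, by norm_num, key 5 ((S.b5 0 _).trans h)⟩
  · exact ⟨6, by norm_num, by norm_num, key 6 ((S.b6 0 _).trans h)⟩

end Seq

theorem sakuma (hV : IsMajoranaAmbient mul B) {μ₀ μ₁ : V ≃ₗ[ℝ] V} {a₀ a₁ : V}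
    (h₀ : IsMajoranaPair mul B μ₀ a₀) (h₁ : IsMajoranaPair mul B μ₁ a₁) (hn₀ : B a₀ a₀ = 1)
    (hn₁ : B a₁ a₁ = 1) : ∃ n : ℕ, 1 ≤ n ∧ n ≤ 6 ∧ (μ₀ * μ₁) ^ n = 1 := by
  set ρ := μ₀ * μ₁ with hρ
  have i0 := invol h₀
  have i1 := invol h₁
  have hinv : μ₀ * ρ * μ₀⁻¹ = ρ⁻¹ := by
    rw [hρ, ← mul_assoc, i0, one_mul, mul_inv_rev, inv_eq_of_mul_eq_one_right i1]
  have hz : ∀ k : ℤ, μ₀ * ρ ^ k = ρ ^ (-k) * μ₀ := fun k => by
    rw [← inv_zpow', ← hinv, conj_zpow, inv_mul_cancel_right]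
  let A : Subgroup (V ≃ₗ[ℝ] V) :=
    { carrier := {g | (∀ u v, g (mul u v) = mul (g u) (g v)) ∧ ∀ u v, B (g u) (g v) = B u v}
      one_mem' := ⟨fun _ _ => rfl, fun _ _ => rfl⟩
      mul_mem' := fun {g h} hg hh => ⟨fun u v => by simp [hg.1, hh.1], fun u v => by simp [hg.2, hh.2]⟩
      inv_mem' := fun {g} hg => ⟨fun u v => g.injective (by simp [hg.1]), fun u v => by
        rw [← hg.2]; simp⟩ }
  have hA : ∀ k : ℤ, ρ ^ k ∈ A := fun k =>
    zpow_mem (mul_mem (show μ₀ ∈ A from ⟨h₀.1, h₀.2.1⟩) (show μ₁ ∈ A from ⟨h₁.1, h₁.2.1⟩)) k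
  have e1 : μ₁ = μ₀ * ρ := by rw [hρ, ← mul_assoc, i0, one_mul]
  let S : Seq mul B :=
    { a := fun i => (ρ ^ (-(i / 2))) (if i % 2 = 0 then a₀ else a₁)
      τ := fun i => μ₀ * ρ ^ i
      amb := hV
      pair := fun i => by
        split_ifs with h
        · convert conj h₀ _ (hA (-(i / 2))).1 (hA (-(i / 2))).2 using 1
          rw [← hz, ← zpow_neg, neg_neg, mul_assoc, ← zpow_add]
          congr 2; omega
        · convert conj h₁ _ (hA (-(i / 2))).1 (hA (-(i / 2))).2 using 1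
          rw [e1, ← mul_assoc, ← hz, ← zpow_neg, neg_neg, mul_assoc, mul_assoc, ← zpow_one_add, ← zpow_add]
          congr 2; omega
      norm := fun i => by
        rw [(hA _).2]; split_ifs <;> assumption
      act := fun i j => by
        rw [← LinearEquiv.mul_apply, mul_assoc, ← zpow_add, hz, LinearEquiv.mul_apply]
        by_cases h : j % 2 = 0
        · rw [if_pos h, if_pos (by omega), fix_self h₀]
          congr 2; omega
        · rw [if_neg h, if_neg (by omega), show μ₀ a₁ = ρ a₁ by rw [hρ, LinearEquiv.mul_apply, fix_self h₁],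
            ← LinearEquiv.mul_apply, ← zpow_add_one]
          congr 2; omega }
  obtain ⟨n, h1, h2, h3⟩ := S.exists_eq
  refine ⟨n, h1, h2, ?_⟩
  have : μ₀ * ρ ^ (0 : ℤ) = μ₀ * ρ ^ (n : ℤ) := h3
  simpa using this.symm

end CA.Maj
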